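import Cfsg.Agent.Sigma.Basic
import Cfsg.Agent.Hall.Pi

/-!
The cores at the primes of `α(M)` and `σ(M)` are Hall subgroups of a maximal subgroup.
-/

set_option autoImplicit false
set_option linter.unusedSectionVars false
set_option linter.style.haveILetI false

namespace CfsgLib.SigmaGroups

open CfsgLib.BenderUnique CfsgLib.Uniq
open scoped commutatorElement

universe u

section Quotient

variable {X : Type u} [Group X] [Finite X] {p : ℕ} [hp : Fact p.Prime]

theorem le_pCore_of_le_fitting {Q : Subgroup X} (hQ : IsPGroup p Q) (h : Q ≤ Cfsg.fittingSubgroup X) :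
    Q ≤ Cfsg.pCore p X := by
  haveI := Components.fittingSubgroup_isNilpotent (G := X)
  exact Components.subnormal_le_pCore (Components.subnormal_trans h
    ((Hall.Struct.nilpotent_iff_forall_subnormal (G := Cfsg.fittingSubgroup X)).1 inferInstance _)
    Components.fittingSubgroup_normal.isSubnormal) hQ

theorem prankLE_quotient {k : ℕ} (N : Subgroup X) [N.Normal] (hN : (Nat.card N).Coprime p)
    (hr : Cfsg.PRankLE p k X) : Cfsg.PRankLE p k (X ⧸ N) := by
  intro A hA hAe
  haveI := hA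
  set H := A.comap (QuotientGroup.mk' N) with hH
  obtain ⟨S⟩ : Nonempty (Sylow p H) := inferInstance
  set T := (S : Subgroup H).map H.subtype with hT
  have hTp : IsPGroup p T := S.isPGroup'.map _
  have hTN : T ⊓ N = ⊥ := PCore.inf_eq_bot_of_isPGroup_of_coprime hTp hN
  have hinj : ∀ t ∈ T, QuotientGroup.mk' N t = 1 → t = 1 := fun t ht h => by
    rw [← Subgroup.mem_bot, ← hTN]
    exact ⟨ht, (QuotientGroup.eq_one_iff t).1 h⟩
  have hmem : ∀ t ∈ T, QuotientGroup.mk' N t ∈ A := fun t ht =>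
    (Subgroup.map_subtype_le _ : T ≤ H) ht
  have hcomm : ∀ a ∈ T, ∀ b ∈ T, a * b = b * a := fun a ha b hb => by
    have h1 : QuotientGroup.mk' N (a * b * (b * a)⁻¹) = 1 := by
      have h2 := congrArg Subtype.val (mul_comm' (⟨_, hmem a ha⟩ : A) ⟨_, hmem b hb⟩)
      simp only [Subgroup.coe_mul] at h2
      rw [map_mul, map_inv, map_mul, map_mul, h2, mul_inv_cancel]
    exact mul_inv_eq_one.1 (hinj _ (T.mul_mem (T.mul_mem ha hb) (T.inv_mem (T.mul_mem hb ha))) h1)
  have hle := hr T ⟨⟨fun a b => Subtype.ext (hcomm a a.2 b b.2)⟩⟩ fun a ha =>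
    hinj _ (T.pow_mem ha p) (by rw [map_pow]; exact hAe _ (hmem a ha))
  refine le_trans (le_of_eq ?_) hle
  have hAp : IsPGroup p A := fun a => ⟨1, Subtype.ext (by rw [pow_one]; simpa using hAe a a.2)⟩
  obtain ⟨n, hn⟩ := hAp.exists_card_eq
  have hcard : Nat.card H = Nat.card N * Nat.card A := PCore.card_comap_mk' N A
  have h0 : ¬ p ∣ Nat.card N := hp.out.coprime_iff_not_dvd.1 hN.symm
  rw [hT, Subgroup.card_map_of_injective H.subtype_injective, S.card_eq_multiplicity, hcard, hn,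
    Nat.factorization_mul Nat.card_pos.ne' (pow_ne_zero _ hp.out.ne_zero), Finsupp.add_apply,
    Nat.factorization_eq_zero_of_not_dvd h0, Nat.Prime.factorization_pow hp.out, Finsupp.single_eq_same, zero_add]

/-- A `p`-element subgroup of the derived group dies modulo a core with trivial `p`-part above it. -/
theorem sylow_le_piCore {π : Set ℕ} (hπ : p ∈ π) (hnil : Group.IsNilpotent ↥(commutator (X ⧸ Cfsg.piCore π X)))
    {S : Subgroup X} (hS : IsPGroup p S) (hSd : S ≤ commutator X) : S ≤ Cfsg.piCore π X := by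
  have h1 : S.map (QuotientGroup.mk' (Cfsg.piCore π X)) ≤ Cfsg.pCore p (X ⧸ Cfsg.piCore π X) := by
    refine le_pCore_of_le_fitting (hS.map _)
      (le_trans ?_ (Components.le_fittingSubgroup inferInstance hnil))
    refine (Subgroup.map_mono hSd).trans ?_
    rw [commutator_def, Subgroup.map_commutator]
    exact Subgroup.commutator_mono le_top le_top
  intro x hx
  have h2 := (h1.trans (Hall.pCore_le_piCore hπ)) ⟨x, hx, rfl⟩
  rw [Hall.piCore_quotient_eq_bot, Subgroup.mem_bot] at h2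
  exact (QuotientGroup.eq_one_iff x).1 h2

theorem sylow_le_piCore_of_le {π π' : Set ℕ} (hsub : π' ⊆ π) (hπ : p ∈ π)
    (hnil : Group.IsNilpotent ↥(commutator (X ⧸ Cfsg.piCore π' X)))
    {S : Subgroup X} (hS : IsPGroup p S) (hSd : S ≤ commutator X) : S ≤ Cfsg.piCore π X := by
  set K := Cfsg.pCore p (X ⧸ Cfsg.piCore π' X)
  have h1 : S.map (QuotientGroup.mk' (Cfsg.piCore π' X)) ≤ K := by
    refine le_pCore_of_le_fitting (hS.map _)
      (le_trans ?_ (Components.le_fittingSubgroup inferInstance hnil))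
    refine (Subgroup.map_mono hSd).trans ?_
    rw [commutator_def, Subgroup.map_commutator]
    exact Subgroup.commutator_mono le_top le_top
  refine le_trans (Subgroup.map_le_iff_le_comap.1 h1) (Hall.le_piCore ?_)
  refine Hall.isPiSubgroup_comap (π := π) (fun q hq hd => hsub (Hall.isPiSubgroup_piCore q hq hd))
    (Hall.isPiSubgroup_of_isPGroup hp.out hπ (Components.pCore_isPGroup p))

end Quotient

variable {G : Type u} [Group G] [Finite G] {p : ℕ} [hp : Fact p.Prime]

theorem commutator_top (hG : Cfsg.IsMinSimpleOddOrder G) : commutator G = ⊤ := by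
  rcases hG.2.1.eq_bot_or_eq_top_of_normal (commutator G) inferInstance with h | h
  · refine absurd ⟨⟨fun a b => ?_⟩⟩ (not_comm hG)
    have hm : ⁅a, b⁆ ∈ commutator G :=
      Subgroup.commutator_mem_commutator (Subgroup.mem_top a) (Subgroup.mem_top b)
    rw [h, Subgroup.mem_bot, commutatorElement_eq_one_iff_mul_comm] at hm
    exact hm
  · exact h

theorem sylow_le_derived_sigma (hG : Cfsg.IsMinSimpleOddOrder G) {M : Subgroup G} (hM : IsCoatom M)
    (hp' : p ∈ Cfsg.sigma M) (P : Sylow p G) (hPM : (P : Subgroup G) ≤ M) :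
    (P : Subgroup G) ≤ ⁅M, M⁆ := by
  have hfoc : (P : Subgroup G) = (P : Subgroup G).focalSubgroup := by
    rw [← Subgroup.commutator_inf_eq_focalSubgroup, commutator_top hG, top_inf_eq]
  conv_lhs => rw [hfoc]
  rw [Subgroup.focalSubgroup_def, Subgroup.closure_le]
  rintro g ⟨hgP, x, hx, w, rfl⟩
  rcases eq_or_ne x 1 with rfl | hx1
  · simp
  have hconj : w * x⁻¹ * w⁻¹ ∈ (P : Subgroup G) := by
    rw [show w * x⁻¹ * w⁻¹ = x⁻¹ * ⁅x, w⁆ by rw [commutatorElement_def]; group]
    exact (P : Subgroup G).mul_mem ((P : Subgroup G).inv_mem hx) hgP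
  obtain ⟨-, h⟩ := sigma_group_trans hG hM hp' (X := Subgroup.zpowers x⁻¹)
    (P.isPGroup'.to_le (Subgroup.zpowers_le.2 ((P : Subgroup G).inv_mem hx)))
    (by rw [Ne, Subgroup.zpowers_eq_bot, inv_eq_one]; exact hx1)
    (Subgroup.zpowers_le.2 (hPM ((P : Subgroup G).inv_mem hx)))
  obtain ⟨m, hm, c, hc, rfl⟩ := h w (by
    rw [MonoidHom.map_zpowers, Subgroup.zpowers_le]
    exact hPM hconj)
  have hcx : x⁻¹ * c = c * x⁻¹ := Subgroup.mem_centralizer_iff.1 hc x⁻¹ (Subgroup.mem_zpowers _)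
  have : ⁅x, m * c⁆ = ⁅x, m⁆ := by
    rw [commutatorElement_def, commutatorElement_def,
      show x * (m * c) * x⁻¹ * (m * c)⁻¹ = x * m * (c * x⁻¹) * c⁻¹ * m⁻¹ by group, ← hcx]
    group
  rw [this]
  exact Subgroup.commutator_mem_commutator (hPM hx) hm

theorem dvd_card_of_alpha {M : Subgroup G} (ha : p ∈ Cfsg.alpha M) : p ∣ Nat.card M := by
  obtain ⟨E, hEM, -, hEc⟩ := exists_elem_of_not_prank ha.2
  exact (hEc ▸ dvd_pow_self p (by norm_num) : p ∣ Nat.card E).trans (Subgroup.card_dvd_of_le hEM)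

theorem mem_sigma_of_alpha (hG : Cfsg.IsMinSimpleOddOrder G) {M : Subgroup G} (hM : IsCoatom M)
    (ha : p ∈ Cfsg.alpha M) : p ∈ Cfsg.sigma M := by
  obtain ⟨E, hEM, hE, hEc⟩ := exists_elem_of_not_prank ha.2
  obtain ⟨S, hS⟩ := exists_max_ge (isPGroup_of_elementary hE) hEM
  refine ⟨hp.out, dvd_card_of_alpha ha, S, ?_⟩
  have hp1 : IsPGroup p ((S : Subgroup M).map M.subtype) := S.isPGroup'.map _
  refine le_of_unique (allUnique hG E hE hEc) hM hEM ?_ (hS.trans Subgroup.le_normalizer)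
  refine normalizer_ne_top hG (fun h => ?_) (pgroup_ne_top hG hp1)
  rw [h, le_bot_iff] at hS
  rw [hS, Subgroup.card_bot] at hEc
  exact (Nat.one_lt_pow (by norm_num) hp.out.one_lt).ne hEc

theorem alpha_subset_sigma (hG : Cfsg.IsMinSimpleOddOrder G) {M : Subgroup G} (hM : IsCoatom M) :
    Cfsg.alpha M ⊆ Cfsg.sigma M := fun q hq => by
  haveI := Fact.mk hq.1
  exact mem_sigma_of_alpha hG hM hq

theorem sylow_le_commutator (hG : Cfsg.IsMinSimpleOddOrder G) {M : Subgroup G} (hM : IsCoatom M)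
    (hp' : p ∈ Cfsg.sigma M) (S : Sylow p M) : (S : Subgroup M) ≤ commutator M := by
  set T : Subgroup G := (S : Subgroup M).map M.subtype
  have h := sylow_le_derived_sigma hG hM hp'
    { toSubgroup := T
      isPGroup' := S.isPGroup'.map _
      is_maximal' := fun {U} hU hle => sylow_of_sigma hp' S U hU hle } (Subgroup.map_subtype_le _)
  rw [← Subgroup.map_subtype_commutator] at h
  exact Subgroup.map_subtype_le_map_subtype.1 h

theorem fitting_quotient_rank (M : Subgroup G) :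
    Cfsg.RankLE 2 ↥(Cfsg.fittingSubgroup (M ⧸ Cfsg.piCore (Cfsg.alpha M) M)) := by
  intro r hr
  haveI := Fact.mk hr
  by_contra hn
  obtain ⟨E, hEF, hE, hEc⟩ := exists_elem_of_not_prank hn
  have hEp := le_pCore_of_le_fitting (isPGroup_of_elementary hE) hEF
  by_cases ha : r ∈ Cfsg.alpha M
  · have h := hEp.trans (Hall.pCore_le_piCore ha)
    rw [Hall.piCore_quotient_eq_bot, le_bot_iff] at h
    rw [h, Subgroup.card_bot] at hEc
    exact (Nat.one_lt_pow (by norm_num) hr.one_lt).ne hEc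
  · have hcop : (Nat.card ↥(Cfsg.piCore (Cfsg.alpha M) M)).Coprime r :=
      PCore.coprime_of_not_dvd fun hd => ha (Hall.isPiSubgroup_piCore r hr hd)
    have hrk : Cfsg.PRankLE r 2 M := by
      by_contra h; exact ha ⟨hr, h⟩
    have := prankLE_quotient _ hcop hrk E hE.1 hE.2
    rw [hEc] at this
    exact absurd this (not_le.2 (Nat.pow_lt_pow_right hr.one_lt (by norm_num)))

/-- B&G 10.2: the derived group is nilpotent modulo `M_α`. -/
theorem nilpotent_commutator_quotient (hG : Cfsg.IsMinSimpleOddOrder G) {M : Subgroup G} (hM : IsCoatom M) :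
    Group.IsNilpotent ↥(commutator (M ⧸ Cfsg.piCore (Cfsg.alpha M) M)) := by
  haveI := isSolvable_of_ne_top hG hM.1
  have hodd : Odd (Nat.card (M ⧸ Cfsg.piCore (Cfsg.alpha M) M)) :=
    (odd_card hG M).of_dvd_nat (Subgroup.card_quotient_dvd_card _)
  exact (Cfsg.Agent.S1451.result hodd (Or.inr (fitting_quotient_rank M))).1

theorem not_dvd_index_of_sylow_le {π : Set ℕ} {M : Subgroup G}
    (h : ∃ S : Sylow p M, (S : Subgroup M) ≤ Cfsg.piCore π M) :
    ¬ p ∣ (Cfsg.piCore π M).index := by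
  obtain ⟨S, hS⟩ := h
  exact fun hd => S.not_dvd_index (hd.trans (Subgroup.index_dvd_of_le hS))

theorem piCore_hallOf {π : Set ℕ} {M : Subgroup G}
    (h : ∀ q : ℕ, q.Prime → q ∈ π → ¬ q ∣ (Cfsg.piCore π M).index) :
    Cfsg.IsPiHallOf π ((Cfsg.piCore π M).map M.subtype) M := by
  refine ⟨Subgroup.map_subtype_le _, fun q hq hd => ?_, fun q hq hπ => ?_⟩
  · rw [Subgroup.card_map_of_injective M.subtype_injective] at hd
    exact Hall.isPiSubgroup_piCore q hq hd
  · rw [Subgroup.relIndex, Subgroup.subgroupOf, Subgroup.comap_map_eq_self_of_injective M.subtype_injective]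
    exact h q hq hπ

theorem alphaCore_hallOf (hG : Cfsg.IsMinSimpleOddOrder G) {M : Subgroup G} (hM : IsCoatom M) :
    Cfsg.IsPiHallOf (Cfsg.alpha M) (Cfsg.alphaCore M) M :=
  piCore_hallOf fun q hq ha => by
    haveI := Fact.mk hq
    obtain ⟨S⟩ : Nonempty (Sylow q M) := inferInstance
    exact not_dvd_index_of_sylow_le ⟨S, sylow_le_piCore ha (nilpotent_commutator_quotient hG hM) S.isPGroup'
      (sylow_le_commutator hG hM (mem_sigma_of_alpha hG hM ha) S)⟩

theorem sigmaCore_hallOf (hG : Cfsg.IsMinSimpleOddOrder G) {M : Subgroup G} (hM : IsCoatom M) :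
    Cfsg.IsPiHallOf (Cfsg.sigma M) (Cfsg.sigmaCore M) M :=
  piCore_hallOf fun q hq ha => by
    haveI := Fact.mk hq
    obtain ⟨S⟩ : Nonempty (Sylow q M) := inferInstance
    exact not_dvd_index_of_sylow_le ⟨S, sylow_le_piCore_of_le (alpha_subset_sigma hG hM) ha
      (nilpotent_commutator_quotient hG hM) S.isPGroup' (sylow_le_commutator hG hM ha S)⟩

/-- A prime of `σ(M)` does not divide the index of `M`. -/
theorem not_dvd_index_sigma {M : Subgroup G} (hp' : p ∈ Cfsg.sigma M) : ¬ p ∣ M.index := by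
  obtain ⟨P, -, hPM, -⟩ := exists_sylow hp' (IsPGroup.of_bot : IsPGroup p (⊥ : Subgroup G)) bot_le
  exact fun hd => P.not_dvd_index (hd.trans (Subgroup.index_dvd_of_le hPM))

theorem hall_of_hallOf {π : Set ℕ} {M N : Subgroup G} (h : Cfsg.IsPiHallOf π N M) (hπ : π ⊆ Cfsg.sigma M) :
    Cfsg.IsPiHall π N := by
  refine ⟨h.2.1, fun q hq hqπ hd => ?_⟩
  haveI := Fact.mk hq
  rw [← Subgroup.relIndex_mul_index h.1] at hd
  exact (hq.dvd_mul.1 hd).elim (h.2.2 q hq hqπ) (not_dvd_index_sigma (hπ hqπ))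

theorem eq_of_hallOf {π : Set ℕ} {M N : Subgroup G} (hMN : M ≤ Subgroup.normalizer (N : Set G))
    (hN : Cfsg.IsPiHallOf π N M) : N = (Cfsg.piCore π M).map M.subtype := by
  haveI : (N.subgroupOf M).Normal := Subgroup.normal_subgroupOf_iff_le_normalizer hN.1 |>.2 hMN
  have hle : N.subgroupOf M ≤ Cfsg.piCore π M := Hall.le_piCore fun q hq hd => hN.2.1 q hq
    (by rwa [Nat.card_congr (Subgroup.subgroupOfEquivOfLe hN.1).toEquiv] at hd)
  have h1 : (N.subgroupOf M).relIndex (Cfsg.piCore π M) = 1 := by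
    refine Nat.eq_one_iff_not_exists_prime_dvd.2 fun q hq hd => hN.2.2 q hq
      (Hall.isPiSubgroup_piCore q hq (hd.trans (Subgroup.relIndex_dvd_card _ _))) ?_
    exact hd.trans (Dvd.intro _ (Subgroup.relIndex_mul_index hle))
  rw [← le_antisymm hle (Subgroup.relIndex_eq_one.1 h1), Subgroup.map_subgroupOf_eq_of_le hN.1]

theorem alphaCore_le_sigmaCore (hG : Cfsg.IsMinSimpleOddOrder G) {M : Subgroup G} (hM : IsCoatom M) :
    Cfsg.alphaCore M ≤ Cfsg.sigmaCore M :=
  Subgroup.map_mono (Hall.le_piCore fun q hq hd => alpha_subset_sigma hG hM (Hall.isPiSubgroup_piCore q hq hd))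

theorem rank_quotient_alpha (hG : Cfsg.IsMinSimpleOddOrder G) {M : Subgroup G} (hM : IsCoatom M) :
    Cfsg.RankLE 2 (M ⧸ Cfsg.piCore (Cfsg.alpha M) M) := by
  intro r hr
  haveI := Fact.mk hr
  by_cases ha : r ∈ Cfsg.alpha M
  · intro A hA hAe
    have hnd : ¬ r ∣ Nat.card (M ⧸ Cfsg.piCore (Cfsg.alpha M) M) := by
      have := (alphaCore_hallOf hG hM).2.2 r hr ha
      rwa [Cfsg.alphaCore, Subgroup.relIndex, Subgroup.subgroupOf,
        Subgroup.comap_map_eq_self_of_injective M.subtype_injective] at this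
    have hAp : IsPGroup r A := fun a => ⟨1, Subtype.ext (by rw [pow_one]; simpa using hAe a a.2)⟩
    obtain ⟨n, hn⟩ := hAp.exists_card_eq
    rcases n.eq_zero_or_pos with rfl | hpos
    · rw [hn, pow_zero]; exact Nat.one_le_pow _ _ hr.pos
    · exact absurd ((hn ▸ dvd_pow_self r hpos.ne' : r ∣ Nat.card A).trans (Subgroup.card_subgroup_dvd_card A)) hnd
  · refine prankLE_quotient _ (PCore.coprime_of_not_dvd fun hd => ha (Hall.isPiSubgroup_piCore r hr hd)) ?_
    by_contra h; exact ha ⟨hr, h⟩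

theorem nilpotent_map_commutator (hG : Cfsg.IsMinSimpleOddOrder G) {M : Subgroup G} (hM : IsCoatom M) :
    Group.IsNilpotent ↥((commutator ↥M).map (QuotientGroup.mk' (Cfsg.piCore (Cfsg.alpha M) ↥M))) := by
  rw [show (commutator ↥M).map (QuotientGroup.mk' (Cfsg.piCore (Cfsg.alpha M) ↥M)) = commutator _ by
    rw [commutator_def, Subgroup.map_commutator, Subgroup.map_top_of_surjective _
      (QuotientGroup.mk'_surjective _), ← commutator_def]]
  exact nilpotent_commutator_quotient hG hM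

end CfsgLib.SigmaGroups
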