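import Cfsg.Agent.Uniqueness.Theorem
import Cfsg.Agent.S1450

/-!
Sylow subgroups at the primes of `σ(M)` and the fusion of their subgroups.
-/

set_option autoImplicit false
set_option linter.unusedSectionVars false
set_option linter.style.haveILetI false

namespace CfsgLib.SigmaGroups

open CfsgLib.BenderUnique CfsgLib.Uniq
open scoped commutatorElement

universe u

variable {G : Type u} [Group G] [Finite G] {p : ℕ} [hp : Fact p.Prime]

theorem exists_max_ge {M X : Subgroup G} (hX : IsPGroup p X) (hXM : X ≤ M) :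
    ∃ S : Sylow p M, X ≤ (S : Subgroup M).map M.subtype := by
  obtain ⟨S, hS⟩ := IsPGroup.exists_le_sylow (hX.comap_subtype : IsPGroup p (X.subgroupOf M))
  refine ⟨S, ?_⟩
  rw [← Subgroup.map_subgroupOf_eq_of_le hXM]
  exact Subgroup.map_mono hS

theorem map_conj_map {X : Subgroup G} (g h : G) :
    (X.map (MulAut.conj g).toMonoidHom).map (MulAut.conj h).toMonoidHom =
      X.map (MulAut.conj (h * g)).toMonoidHom := by
  rw [Subgroup.map_map, map_mul]
  rfl

theorem map_conj_one (X : Subgroup G) : X.map (MulAut.conj (1 : G)).toMonoidHom = X := by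
  rw [map_one]; exact Subgroup.map_id X

theorem map_conj_le_of_mem {M : Subgroup G} {m : G} (hm : m ∈ M) :
    M.map (MulAut.conj m).toMonoidHom ≤ M := by
  rintro _ ⟨x, hx, rfl⟩
  exact M.mul_mem (M.mul_mem hm hx) (M.inv_mem hm)

theorem map_conj_le_iff {X Y : Subgroup G} (g : G) :
    X.map (MulAut.conj g).toMonoidHom ≤ Y ↔ X ≤ Y.map (MulAut.conj g⁻¹).toMonoidHom := by
  constructor
  · intro h
    have := Subgroup.map_mono (f := (MulAut.conj g⁻¹).toMonoidHom) h
    rwa [map_conj_map, inv_mul_cancel, map_conj_one] at this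
  · intro h
    have := Subgroup.map_mono (f := (MulAut.conj g).toMonoidHom) h
    rwa [map_conj_map, mul_inv_cancel, map_conj_one] at this

theorem mem_centralizer_of_le {X Y : Subgroup G} (h : X ≤ Y) {c : G}
    (hc : c ∈ Subgroup.centralizer (Y : Set G)) : c ∈ Subgroup.centralizer (X : Set G) :=
  Subgroup.centralizer_le h hc

theorem map_conj_eq_of_normalizer {X : Subgroup G} {c : G} (hc : c ∈ Subgroup.normalizer (X : Set G)) :
    X.map (MulAut.conj c).toMonoidHom = X :=
  Subgroup.mem_normalizer_iff_map_conj_eq.1 hc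

theorem card_map_conj (X : Subgroup G) (g : G) : Nat.card (X.map (MulAut.conj g).toMonoidHom) = Nat.card X :=
  Subgroup.card_map_of_injective (MulAut.conj g).injective

theorem map_conj_eq_of_centralizer {X : Subgroup G} {c : G} (hc : c ∈ Subgroup.centralizer (X : Set G)) :
    X.map (MulAut.conj c).toMonoidHom = X :=
  Subgroup.mem_normalizer_iff_map_conj_eq.1 (Subgroup.centralizer_le_normalizer _ hc)

theorem exists_conj_sylow {M : Subgroup G} (S T : Sylow p M) :
    ∃ m ∈ M, ((S : Subgroup M).map M.subtype).map (MulAut.conj m).toMonoidHom =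
      (T : Subgroup M).map M.subtype := by
  obtain ⟨m, hm⟩ := MulAction.exists_smul_eq M S T
  refine ⟨m, m.2, ?_⟩
  have he : (T : Subgroup M) = (S : Subgroup M).map (MulAut.conj m).toMonoidHom := by rw [← hm]; rfl
  rw [he, Subgroup.map_map, Subgroup.map_map]
  rfl

/-- For `p ∈ σ(M)` every Sylow `p`-subgroup of `M` has its normalizer in `M`. -/
theorem normalizer_sylow_le {M : Subgroup G} (hp' : p ∈ Cfsg.sigma M) (S : Sylow p M) :
    Subgroup.normalizer (((S : Subgroup M).map M.subtype : Subgroup G) : Set G) ≤ M := by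
  obtain ⟨-, -, P, hP⟩ := hp'
  obtain ⟨m, hm, he⟩ := exists_conj_sylow P S
  intro g hg
  replace hg := map_conj_eq_of_normalizer hg
  have h1 : m⁻¹ * g * m ∈ M := hP (Subgroup.mem_normalizer_iff_map_conj_eq.2 (by
    show Subgroup.map (MulAut.conj (m⁻¹ * g * m)).toMonoidHom _ = _
    rw [← map_conj_map m (m⁻¹ * g), he, ← map_conj_map g m⁻¹]
    show Subgroup.map (MulAut.conj m⁻¹).toMonoidHom (Subgroup.map (MulAut.conj g).toMonoidHom _) = _
    rw [hg, ← he, map_conj_map, inv_mul_cancel, map_conj_one]))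
  have := M.mul_mem (M.mul_mem hm h1) (M.inv_mem hm)
  simpa [mul_assoc] using this

/-- For `p ∈ σ(M)` a Sylow `p`-subgroup of `M` is one of `G`. -/
theorem sylow_of_sigma {M : Subgroup G} (hp' : p ∈ Cfsg.sigma M) (S : Sylow p M) :
    ∀ T : Subgroup G, IsPGroup p T → (S : Subgroup M).map M.subtype ≤ T → T = (S : Subgroup M).map M.subtype := by
  intro T hT hle
  refine (eq_of_le_of_not_lt hle fun hlt => ?_).symm
  have h1 := exists_lt_mem_normalizer hT hlt
  exact h1.ne (sylow_map_max S _ (hT.to_le inf_le_left) (inf_le_right.trans (normalizer_sylow_le hp' S)) h1.le).symm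

/-- A Sylow subgroup of `G` inside `M`, from `p ∈ σ(M)`. -/
theorem exists_sylow {M : Subgroup G} (hp' : p ∈ Cfsg.sigma M) {X : Subgroup G} (hX : IsPGroup p X) (hXM : X ≤ M) :
    ∃ P : Sylow p G, X ≤ (P : Subgroup G) ∧ (P : Subgroup G) ≤ M ∧
      Subgroup.normalizer ((P : Subgroup G) : Set G) ≤ M := by
  obtain ⟨S, hS⟩ := exists_max_ge hX hXM
  exact ⟨{ toSubgroup := (S : Subgroup M).map M.subtype
           isPGroup' := S.isPGroup'.map _
           is_maximal' := fun {T} hT hle => sylow_of_sigma hp' S T hT hle }, hS, Subgroup.map_subtype_le _,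
    normalizer_sylow_le hp' S⟩

theorem centralizer_mul_mem {X : Subgroup G} {M : Subgroup G} {n : G} (hn : n ∈ Subgroup.normalizer (X : Set G))
    (h : n ∈ (M ⊓ Subgroup.normalizer (X : Set G)) ⊔ Subgroup.centralizer (X : Set G)) :
    ∃ m ∈ M, ∃ c ∈ Subgroup.centralizer (X : Set G), n = m * c := by
  rw [← SetLike.mem_coe, Subgroup.coe_mul_of_left_le_normalizer_right] at h
  · obtain ⟨m, hm, c, hc, rfl⟩ := h
    exact ⟨m, hm.1, c, hc, rfl⟩
  · exact inf_le_right.trans (Components.normalizer_le_normalizer_centralizer _)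

/-- B&G 10.1 for one subgroup, given it for the larger ones. -/
theorem sigma_group_trans_step (hG : Cfsg.IsMinSimpleOddOrder G) {M : Subgroup G} (hM : IsCoatom M)
    (hp' : p ∈ Cfsg.sigma M) {X : Subgroup G} (hX : IsPGroup p X) (hX1 : X ≠ ⊥) (hXM : X ≤ M)
    (ih : ∀ Y : Subgroup G, IsPGroup p Y → X < Y → Y ≤ M → ∀ g : G, Y.map (MulAut.conj g).toMonoidHom ≤ M →
      ∃ m ∈ M, ∃ c ∈ Subgroup.centralizer (Y : Set G), g = m * c) :
    Subgroup.normalizer (X : Set G) = (M ⊓ Subgroup.normalizer (X : Set G)) ⊔ Subgroup.centralizer (X : Set G) ∧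
      ∀ g : G, X.map (MulAut.conj g).toMonoidHom ≤ M →
        ∃ m ∈ M, ∃ c ∈ Subgroup.centralizer (X : Set G), g = m * c := by
  set N := Subgroup.normalizer (X : Set G) with hN
  set C := Subgroup.centralizer (X : Set G) with hC
  have hCN : C ≤ N := Subgroup.centralizer_le_normalizer _
  obtain ⟨P, hXP, hPM, hNP⟩ := exists_sylow hp' hX hXM
  rcases hXP.eq_or_lt with he | hlt
  · have hNM : N ≤ M := by rw [hN, he]; exact hNP
    refine ⟨le_antisymm ((le_inf hNM le_rfl).trans le_sup_left) (sup_le inf_le_right hCN), fun g hg => ?_⟩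
    obtain ⟨S, hS⟩ := exists_max_ge hX hXM
    obtain ⟨T, hT⟩ := exists_max_ge (hX.map (MulAut.conj g).toMonoidHom) hg
    have hXS : (S : Subgroup M).map M.subtype = X := by
      rw [he]
      exact P.3 (S.isPGroup'.map _) (he ▸ hS)
    have hgT : (T : Subgroup M).map M.subtype = X.map (MulAut.conj g).toMonoidHom := by
      refine (Subgroup.eq_of_le_of_card_ge hT ?_).symm
      rw [card_map_conj, ← hXS,
        CoprimeAction.card_sylow_map, CoprimeAction.card_sylow_map]
    obtain ⟨m, hm, hme⟩ := exists_conj_sylow S T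
    rw [hXS, hgT] at hme
    have hmem : m⁻¹ * g ∈ N := by
      rw [hN, Subgroup.mem_normalizer_iff_map_conj_eq]
      show Subgroup.map (MulAut.conj (m⁻¹ * g)).toMonoidHom X = X
      rw [← map_conj_map, ← hme, map_conj_map, inv_mul_cancel, map_conj_one]
    exact ⟨g, by simpa [mul_assoc] using M.mul_mem hm (hNM hmem), 1, one_mem _, (mul_one g).symm⟩
  have hgrow := exists_lt_mem_normalizer P.isPGroup' hlt
  -- a Sylow subgroup of the normalizer inside `M`
  obtain ⟨S₀, hS₀⟩ := exists_max_ge (P.isPGroup'.to_le inf_le_left) (inf_le_right : (P : Subgroup G) ⊓ N ≤ N)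
  set R₀ := (S₀ : Subgroup N).map N.subtype with hR₀
  obtain ⟨P₁, hP₁⟩ := IsPGroup.exists_le_sylow (S₀.isPGroup'.map N.subtype : IsPGroup p R₀)
  obtain ⟨h, hh⟩ := MulAction.exists_smul_eq G P₁ P
  have hR₀M : R₀.map (MulAut.conj h).toMonoidHom ≤ M := by
    refine le_trans ?_ hPM
    rw [← hh]
    exact Subgroup.map_mono hP₁
  obtain ⟨m, hm, c, hc, hmc⟩ := ih _ (P.isPGroup'.to_le inf_le_left) hgrow (inf_le_left.trans hPM) h
    ((Subgroup.map_mono hS₀).trans hR₀M)
  have hcC : c ∈ C := mem_centralizer_of_le hgrow.le hc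
  set R := R₀.map (MulAut.conj c).toMonoidHom with hR
  have hRp : IsPGroup p R := (S₀.isPGroup'.map _).map _
  have hRN : R ≤ N := (Subgroup.map_mono (Subgroup.map_subtype_le _)).trans (map_conj_le_of_mem (hCN hcC))
  have hRM : R ≤ M := by
    have h1 := Subgroup.map_mono (f := (MulAut.conj m⁻¹).toMonoidHom) hR₀M
    rw [map_conj_map, hmc, ← mul_assoc, inv_mul_cancel, one_mul] at h1
    exact h1.trans (map_conj_le_of_mem (M.inv_mem hm))
  have hXR : X < R := by
    have h1 : X < R₀ := hgrow.trans_le hS₀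
    refine lt_of_le_of_ne ?_ fun e => h1.ne ?_
    · rw [hR, ← map_conj_eq_of_centralizer hcC]
      exact Subgroup.map_mono h1.le
    · refine Subgroup.eq_of_le_of_card_ge h1.le (le_of_eq ?_)
      rw [e, hR, card_map_conj]
  have hmaxR : ∀ T : Subgroup G, IsPGroup p T → T ≤ N → R ≤ T → T = R := by
    intro T hT hTN hle
    have h1 := sylow_map_max S₀ (T.map (MulAut.conj c⁻¹).toMonoidHom) (hT.map _)
      ((Subgroup.map_mono hTN).trans (map_conj_le_of_mem (N.inv_mem (hCN hcC)))) (by
        rw [← map_conj_le_iff]; exact hle)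
    rw [hR, hR₀, ← h1, map_conj_map, mul_inv_cancel, map_conj_one]
  have hNeq : N = (M ⊓ N) ⊔ C := by
    refine le_antisymm ?_ (sup_le inf_le_right hCN)
    have hNtop : N ≠ ⊤ := normalizer_ne_top hG hX1 (pgroup_ne_top hG hX)
    by_cases hr : Cfsg.PRankLE p 2 ↥R
    · haveI := isSolvable_of_ne_top hG hNtop
      obtain ⟨D, -, hD, hle⟩ := frattini_inf hRp hRN hmaxR
      have hO : coreOf p N ≤ C := by
        intro k hk
        refine Subgroup.mem_centralizer_iff.2 fun x hx => ?_
        have h1 : x * k * x⁻¹ * k⁻¹ ∈ X ⊓ coreOf p N := by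
          refine Subgroup.mem_inf.2 ⟨?_, (coreOf p N).mul_mem ((Subgroup.mem_normalizer_iff.1
            (le_normalizer_coreOf N (Subgroup.le_normalizer hx)) k).1 hk) ((coreOf p N).inv_mem hk)⟩
          rw [show x * k * x⁻¹ * k⁻¹ = x * (k * x⁻¹ * k⁻¹) by group]
          exact X.mul_mem hx ((Subgroup.mem_normalizer_iff.1 (coreOf_le N hk) x⁻¹).1 (X.inv_mem hx))
        rw [PCore.inf_eq_bot_of_isPGroup_of_coprime hX (coreOf_coprime N), Subgroup.mem_bot, mul_inv_eq_one,
          mul_inv_eq_iff_eq_mul] at h1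
        exact h1
      have hpN : p ∣ Nat.card N := (dvd_card_of_ne_bot hX hX1).trans
        (Subgroup.card_dvd_of_le Subgroup.le_normalizer)
      obtain ⟨-, -, -, -, -, hidx⟩ :=
        Cfsg.Agent.S1450.result (odd_card hG N) p hpN (prankLE_of_sylow hRp hRN hmaxR hr)
      haveI := PCore.pPrimePCore_normal p N
      have hDeq : D = R := by
        rw [hD]
        refine inf_eq_left.2 fun x hx => ?_
        refine ⟨⟨x, hRN hx⟩, ?_, rfl⟩
        obtain ⟨n, hn⟩ := IsPGroup.iff_orderOf.1 hRp ⟨x, hx⟩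
        rw [Subgroup.orderOf_mk] at hn
        refine OddFitting.mem_of_coprime_pow (H := Cfsg.pPrimePCore p N) (hidx.pow_right n).symm
          (Subtype.ext ?_) (Subgroup.pow_index_mem _ _)
        rw [Subgroup.coe_pow, ← hn]
        exact pow_orderOf_eq_one x
      refine hle.trans (sup_le (hO.trans le_sup_right) fun w hw => ?_)
      obtain ⟨hwN, hwR⟩ := Subgroup.mem_inf.1 hw
      rw [hDeq, Subgroup.mem_normalizer_iff_map_conj_eq] at hwR
      obtain ⟨m', hm', c', hc', rfl⟩ := ih R hRp hXR hRM w (hwR.le.trans hRM)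
      have hc'C : c' ∈ C := mem_centralizer_of_le hXR.le hc'
      exact Subgroup.mul_mem _ (Subgroup.mem_sup_left (Subgroup.mem_inf.2 ⟨hm',
        by simpa using N.mul_mem hwN (N.inv_mem (hCN hc'C))⟩)) (Subgroup.mem_sup_right hc'C)
    · obtain ⟨E, hER, hE, hEc⟩ := exists_elem_of_not_prank hr
      exact (le_inf (le_of_unique (allUnique hG E hE hEc) hM (hER.trans hRM) hNtop (hER.trans hRN)) le_rfl).trans
        le_sup_left
  refine ⟨hNeq, fun g hg => ?_⟩
  by_cases hsyl : ∃ Q : Sylow p G, X.map (MulAut.conj g).toMonoidHom < (Q : Subgroup G) ∧ (Q : Subgroup G) ≤ M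
  · obtain ⟨Q, hQ, hQM⟩ := hsyl
    set W := (Q : Subgroup G) ⊓ Subgroup.normalizer (X.map (MulAut.conj g).toMonoidHom : Set G)
    have hW := exists_lt_mem_normalizer Q.isPGroup' hQ
    set Y := W.map (MulAut.conj g⁻¹).toMonoidHom with hY
    have hXY : X ≤ Y := by
      rw [hY, ← map_conj_le_iff]
      exact hW.le
    have hYN : Y ≤ N := by
      intro y hy
      obtain ⟨w, hw, rfl⟩ := hy
      rw [hN, Subgroup.mem_normalizer_iff_map_conj_eq]
      have hw2 := map_conj_eq_of_normalizer (Subgroup.mem_inf.1 hw).2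
      show Subgroup.map (MulAut.conj ((MulAut.conj g⁻¹).toMonoidHom w)).toMonoidHom X = X
      rw [show (MulAut.conj g⁻¹).toMonoidHom w = g⁻¹ * (w * g) by simp [mul_assoc], ← map_conj_map,
        ← map_conj_map g w]
      show Subgroup.map (MulAut.conj g⁻¹).toMonoidHom
        (Subgroup.map (MulAut.conj w).toMonoidHom (Subgroup.map (MulAut.conj g).toMonoidHom X)) = X
      rw [hw2, map_conj_map, inv_mul_cancel, map_conj_one]
    have hYp : IsPGroup p Y := (Q.isPGroup'.to_le inf_le_left).map _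
    have hYlt : X < Y := by
      refine lt_of_le_of_ne hXY fun e => hW.ne (Subgroup.eq_of_le_of_card_ge hW.le (le_of_eq ?_))
      rw [card_map_conj, congrArg (fun T : Subgroup G => Nat.card T) e, hY, card_map_conj]
    obtain ⟨S₁, hS₁⟩ := exists_max_ge hYp hYN
    obtain ⟨S₂, hS₂⟩ := exists_sylow_eq hRp hRN hmaxR
    obtain ⟨n, hn, hne⟩ := exists_conj_sylow S₁ S₂
    rw [hS₂] at hne
    have hZR : Y.map (MulAut.conj n).toMonoidHom ≤ R := hne ▸ Subgroup.map_mono hS₁
    have hXZ : X < Y.map (MulAut.conj n).toMonoidHom := by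
      have hnX := Subgroup.mem_normalizer_iff_map_conj_eq.1 hn
      refine lt_of_le_of_ne (hnX.ge.trans (Subgroup.map_mono hXY)) fun e => hYlt.ne ?_
      exact Subgroup.eq_of_le_of_card_ge hXY (le_of_eq
        (by rw [← card_map_conj Y n]
            exact congrArg (fun T : Subgroup G => Nat.card T) e.symm))
    obtain ⟨m', hm', c', hc', he⟩ := ih _ (hYp.map _) hXZ (hZR.trans hRM) (g * n⁻¹) (by
      rw [map_conj_map, inv_mul_cancel_right, hY, map_conj_map, mul_inv_cancel, map_conj_one]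
      exact inf_le_left.trans hQM)
    have hn' : n ∈ (M ⊓ N) ⊔ C := hNeq ▸ hn
    obtain ⟨m'', hm'', c'', hc'', rfl⟩ := centralizer_mul_mem hn hn'
    have hm''N : m'' ∈ N := by
      simpa using N.mul_mem hn (N.inv_mem (hCN hc''))
    refine ⟨m' * m'', M.mul_mem hm' hm'', (m''⁻¹ * c' * m'') * c'', C.mul_mem ?_ hc'', ?_⟩
    · have hc'C : c' ∈ C := mem_centralizer_of_le hXZ.le hc'
      have := (Subgroup.mem_normalizer_iff.1 (Components.normalizer_le_normalizer_centralizer _
        (N.inv_mem hm''N)) c').1 hc'C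
      simpa using this
    · rw [show g = g * (m'' * c'')⁻¹ * (m'' * c'') by group, he]
      group
  · exfalso
    obtain ⟨Q, hQ, hQM, -⟩ := exists_sylow hp' (hX.map (MulAut.conj g).toMonoidHom) hg
    refine hsyl ⟨Q, lt_of_le_of_ne hQ fun e => hlt.ne (Subgroup.eq_of_le_of_card_ge hlt.le ?_), hQM⟩
    rw [← card_map_conj X g, e, Sylow.card_eq_multiplicity,
      Sylow.card_eq_multiplicity]

/-- B&G 10.1. -/
theorem sigma_group_trans (hG : Cfsg.IsMinSimpleOddOrder G) {M : Subgroup G} (hM : IsCoatom M)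
    (hp' : p ∈ Cfsg.sigma M) :
    ∀ {X : Subgroup G}, IsPGroup p X → X ≠ ⊥ → X ≤ M →
      Subgroup.normalizer (X : Set G) = (M ⊓ Subgroup.normalizer (X : Set G)) ⊔ Subgroup.centralizer (X : Set G) ∧
        ∀ g : G, X.map (MulAut.conj g).toMonoidHom ≤ M →
          ∃ m ∈ M, ∃ c ∈ Subgroup.centralizer (X : Set G), g = m * c := by
  suffices h : ∀ (n : ℕ) (X : Subgroup G), Nat.card G - Nat.card X = n → IsPGroup p X → X ≠ ⊥ → X ≤ M →
      Subgroup.normalizer (X : Set G) = (M ⊓ Subgroup.normalizer (X : Set G)) ⊔ Subgroup.centralizer (X : Set G) ∧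
        ∀ g : G, X.map (MulAut.conj g).toMonoidHom ≤ M →
          ∃ m ∈ M, ∃ c ∈ Subgroup.centralizer (X : Set G), g = m * c from
    fun {X} => h _ X rfl
  intro n
  induction n using Nat.strong_induction_on with
  | _ n ih =>
  intro X hn hX hX1 hXM
  refine sigma_group_trans_step hG hM hp' hX hX1 hXM fun Y hY hlt hYM => (ih _ ?_ Y rfl hY
    (ne_bot_of_gt hlt) hYM).2
  have h1 := card_lt_of_lt hlt
  have h2 := Subgroup.card_le_card_group Y
  omega

end CfsgLib.SigmaGroups
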