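import Cfsg.Agent.Sigma.Cores
import Cfsg.Agent.S1443
import Cfsg.Agent.CoprimeAction.Invariant
import Cfsg.Agent.Chev.Ree.GroupLemmas2

/-!
Uniqueness from centralizers in `M_α`, and the primes outside `σ(M)`.
-/

set_option autoImplicit false
set_option linter.unusedSectionVars false
set_option linter.style.haveILetI false

namespace CfsgLib.SigmaGroups

open CfsgLib.BenderUnique CfsgLib.Uniq

universe u

variable {G : Type u} [Group G] [Finite G] {p : ℕ} [hp : Fact p.Prime]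

theorem le_alphaCore (hG : Cfsg.IsMinSimpleOddOrder G) {M : Subgroup G} (hM : IsCoatom M)
    (ha : p ∈ Cfsg.alpha M) {Y : Subgroup G} (hY : IsPGroup p Y) (hYM : Y ≤ M) : Y ≤ Cfsg.alphaCore M := by
  intro y hy
  refine ⟨⟨y, hYM hy⟩, ?_, rfl⟩
  have hnd := (alphaCore_hallOf hG hM).2.2 p hp.out ha
  rw [Cfsg.alphaCore, Subgroup.relIndex, Subgroup.subgroupOf,
    Subgroup.comap_map_eq_self_of_injective M.subtype_injective] at hnd
  obtain ⟨n, hn⟩ := IsPGroup.iff_orderOf.1 hY ⟨y, hy⟩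
  rw [Subgroup.orderOf_mk] at hn
  refine OddFitting.mem_of_coprime_pow (H := Cfsg.piCore (Cfsg.alpha M) M)
    ((PCore.coprime_of_not_dvd hnd).pow_right n).symm (Subtype.ext ?_) (Subgroup.pow_index_mem _ _)
  rw [Subgroup.coe_pow, ← hn]
  exact pow_orderOf_eq_one y

theorem mem_alpha_of_dvd (M : Subgroup G) {q : ℕ} (hq : q.Prime) (h : q ∣ Nat.card ↥(Cfsg.alphaCore M)) :
    q ∈ Cfsg.alpha M :=
  Hall.isPiSubgroup_piCore q hq (by
    rwa [Cfsg.alphaCore, Subgroup.card_map_of_injective M.subtype_injective] at h)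

theorem le_normalizer_alphaCore (M : Subgroup G) : M ≤ Subgroup.normalizer (Cfsg.alphaCore M : Set G) := by
  unfold Cfsg.alphaCore
  rw [← Subgroup.normal_subgroupOf_iff_le_normalizer (Subgroup.map_subtype_le _),
    Subgroup.subgroupOf, Subgroup.comap_map_eq_self_of_injective M.subtype_injective]
  infer_instance

/-- B&G 10.3(a). -/
theorem centralizer_unique (hG : Cfsg.IsMinSimpleOddOrder G) {M X : Subgroup G} (hM : IsCoatom M) (hXM : X ≤ M)
    (hXα : ∀ p : ℕ, p.Prime → p ∣ Nat.card X → p ∉ Cfsg.alpha M)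
    (hr : ¬ Cfsg.RankLE 1 ↥(Cfsg.alphaCore M ⊓ Subgroup.centralizer (X : Set G))) :
    Cfsg.InUniqueMaximal (M ⊓ Subgroup.centralizer (X : Set G)) := by
  simp only [Cfsg.RankLE, not_forall] at hr
  obtain ⟨q, hq, hnr⟩ := hr
  haveI := Fact.mk hq
  obtain ⟨E, hEK, hE, hEc⟩ := exists_elem_of_not_prank hnr
  obtain ⟨hEA, hEX⟩ := le_inf_iff.1 hEK
  have hAM : Cfsg.alphaCore M ≤ M := Subgroup.map_subtype_le _
  have hqE : q ∣ Nat.card E := hEc ▸ dvd_pow_self q (by norm_num)
  have ha : q ∈ Cfsg.alpha M := mem_alpha_of_dvd M hq (hqE.trans (Subgroup.card_dvd_of_le hEA))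
  have hEMC : E ≤ M ⊓ Subgroup.centralizer (X : Set G) := le_inf (hEA.trans hAM) hEX
  have htop : M ⊓ Subgroup.centralizer (X : Set G) ≠ ⊤ := fun h => hM.1 (top_unique (h.ge.trans inf_le_left))
  by_cases h3 : Cfsg.PRankLE q 2 ↥(Subgroup.centralizer (E : Set G))
  swap
  · exact unique_mono (unique_of_centralizer_prank hG (allUnique hG)
      (not_rankLE_of_elem (k := 1) le_rfl hE (pow_lt_card hEc)) h3) hEMC htop
  have hmax : ∀ B : Subgroup G, Cfsg.IsElementaryAbelian q B → E ≤ B → B = E := by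
    intro B hB hEB
    refine (Subgroup.eq_of_le_of_card_ge hEB ?_).symm
    by_contra hlt
    push Not at hlt
    rw [hEc] at hlt
    exact not_prank_of_elem ((elementary_le_centralizer hB).trans (Subgroup.centralizer_le hEB)) hB hlt h3
  have hcop : (Nat.card X).Coprime (Nat.card ↥(Cfsg.alphaCore M)) :=
    Nat.coprime_of_dvd fun r hr h1 h2 => hXα r hr h1 (mem_alpha_of_dvd M hr h2)
  have hXC : X ≤ Subgroup.centralizer (E : Set G) := Subgroup.le_centralizer_iff.1 hEX
  haveI := isSolvable_of_ne_top hG hM.1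
  obtain ⟨P, hEP, hPX⟩ := CoprimeAction.exists_invariant_sylow_ge (hXM.trans (le_normalizer_alphaCore M)) hcop
    (Or.inr (Group.isSolvable_of_isSolvable_injective (Subgroup.inclusion_injective hAM))) hEA
    (isPGroup_of_elementary hE) (hXC.trans (Subgroup.centralizer_le_normalizer _))
  set T := (P : Subgroup ↥(Cfsg.alphaCore M)).map (Cfsg.alphaCore M).subtype
  have hTA : T ≤ Cfsg.alphaCore M := Subgroup.map_subtype_le _
  have hXT : X ≤ Subgroup.centralizer (T : Set G) := by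
    refine Cfsg.Agent.S1443.result q (ne_two hG (hqE.trans (Subgroup.card_subgroup_dvd_card E))) T E X (P.isPGroup'.map _) hEP hE hPX
      (PCore.coprime_of_not_dvd fun hd => hXα q hq hd ha) fun x hx hxo => ?_
    have hxq : x ^ q = 1 := hxo ▸ pow_orderOf_eq_one x
    have hsup := hmax _ (NormalEl.elementary_sup hE (elementary_zpowers hxq) fun a ha' b hb =>
      Subgroup.mem_centralizer_iff.1 ((Subgroup.zpowers_le.2 (Subgroup.mem_inf.1 hx).2) hb) a ha') le_sup_left
    exact le_centralizer_singleton (hEX (hsup ▸ Subgroup.mem_sup_right (Subgroup.mem_zpowers x)))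
  have hT3 : ¬ Cfsg.PRankLE q 2 ↥T := fun h => by
    obtain ⟨B, hBM, hB, hBc⟩ := exists_elem_of_not_prank ha.2
    exact not_prank_of_elem (le_alphaCore hG hM ha (isPGroup_of_elementary hB) hBM) hB (pow_lt_card hBc)
      (prankLE_of_sylow (P.isPGroup'.map _) hTA (sylow_map_max P) h)
  obtain ⟨B, hBT, hB, hBc⟩ := exists_elem_of_not_prank hT3
  exact unique_mono (allUnique hG B hB hBc)
    (hBT.trans (le_inf (hTA.trans hAM) (Subgroup.le_centralizer_iff.1 hXT))) htop

theorem normalizer_coatom (hG : Cfsg.IsMinSimpleOddOrder G) {M : Subgroup G} (hM : IsCoatom M) (h1 : M ≠ ⊥) :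
    Subgroup.normalizer (M : Set G) = M :=
  ((hM.le_iff.1 Subgroup.le_normalizer).resolve_left (normalizer_ne_top hG h1 hM.1))

/-- B&G 10.3(b). -/
theorem exists_central_element (hG : Cfsg.IsMinSimpleOddOrder G) {M : Subgroup G} (hM : IsCoatom M)
    (hpM : p ∣ Nat.card M) (hp' : p ∉ Cfsg.sigma M) (P : Sylow p M) :
    ∃ x : G, x ∈ ((Subgroup.center ↥(P : Subgroup M)).map (P : Subgroup M).subtype).map M.subtype ∧ orderOf x = p ∧
        IsZGroup ↥(Cfsg.alphaCore M ⊓ Subgroup.centralizer ({x} : Set G)) ∧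
        ¬ (Subgroup.centralizer ({x} : Set G) ≤ M ∧
          ∀ L : Subgroup G, IsCoatom L → Subgroup.centralizer ({x} : Set G) ≤ L → L = M) := by
  set Z := ((Subgroup.center ↥(P : Subgroup M)).map (P : Subgroup M).subtype).map M.subtype with hZ
  set T := (P : Subgroup M).map M.subtype with hT
  haveI : Nontrivial ↥(P : Subgroup M) := by
    rw [← Finite.one_lt_card_iff_nontrivial, P.card_eq_multiplicity]
    exact Nat.one_lt_pow (Nat.Prime.factorization_pos_of_dvd hp.out Nat.card_pos.ne' hpM).ne' hp.out.one_lt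
  have hM1 : M ≠ ⊥ := by
    rintro rfl
    rw [Subgroup.card_bot] at hpM
    exact hp.out.one_lt.ne' (Nat.dvd_one.1 hpM)
  obtain ⟨y, hy, hyo⟩ : ∃ y : G, y ∈ Z ∧ orderOf y = p := by
    have hcp : p ∣ Nat.card (Subgroup.center ↥(P : Subgroup M)) := by
      haveI := P.isPGroup'.center_nontrivial
      obtain ⟨n, hn, hc⟩ := (P.isPGroup'.to_subgroup (Subgroup.center _)).nontrivial_iff_card.1 inferInstance
      exact hc ▸ dvd_pow_self p hn.ne'
    obtain ⟨z, hz⟩ := exists_prime_orderOf_dvd_card' p hcp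
    refine ⟨_, ⟨_, ⟨(z : ↥(P : Subgroup M)), z.2, rfl⟩, rfl⟩, ?_⟩
    rw [Subgroup.subtype_apply, Subgroup.subtype_apply, Subgroup.orderOf_coe, Subgroup.orderOf_coe,
      Subgroup.orderOf_coe, hz]
  have hkey : ∃ x : G, x ∈ Z ∧ orderOf x = p ∧ ¬ (Subgroup.centralizer ({x} : Set G) ≤ M ∧
      ∀ L : Subgroup G, IsCoatom L → Subgroup.centralizer ({x} : Set G) ≤ L → L = M) := by
    by_contra hno
    push Not at hno
    refine hp' ⟨hp.out, hpM, P, fun g hg => ?_⟩
    have hgy : g * y * g⁻¹ ∈ Z := by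
      obtain ⟨_, ⟨z, hz, rfl⟩, rfl⟩ := hy
      have h1 : g * ((z : M) : G) * g⁻¹ ∈ T := (Subgroup.mem_normalizer_iff.1 hg _).1 ⟨_, z.2, rfl⟩
      obtain ⟨w, hw, hwe⟩ := h1
      refine ⟨w, ⟨⟨w, hw⟩, Subgroup.mem_center_iff.2 fun t => Subtype.ext (Subtype.ext ?_), rfl⟩, hwe⟩
      obtain ⟨t', ht', hte⟩ :=
        (Subgroup.mem_normalizer_iff.1 (Subgroup.inv_mem _ hg) ((t : M) : G)).1 ⟨_, t.2, rfl⟩
      have hc := congrArg (fun a : ↥(P : Subgroup M) => ((a : M) : G)) (Subgroup.mem_center_iff.1 hz ⟨t', ht'⟩)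
      simp only [Subgroup.coe_mul, Subgroup.subtype_apply] at hc hwe hte ⊢
      rw [hte] at hc
      rw [hwe]
      calc ((t : M) : G) * (g * ((z : M) : G) * g⁻¹)
          = g * (g⁻¹ * ((t : M) : G) * (g⁻¹)⁻¹ * ((z : M) : G)) * g⁻¹ := by group
        _ = g * (((z : M) : G) * (g⁻¹ * ((t : M) : G) * (g⁻¹)⁻¹)) * g⁻¹ := by rw [hc]
        _ = g * ((z : M) : G) * g⁻¹ * ((t : M) : G) := by group
    obtain ⟨h1, -⟩ := hno y hy hyo
    obtain ⟨-, h3⟩ := hno _ hgy (by
      rw [← MulAut.conj_apply]; exact (MulEquiv.orderOf_eq _ y).trans hyo)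
    have hMg : M.map (MulAut.conj g).toMonoidHom = M := by
      refine h3 _ (isCoatom_map _ hM) fun c hc => ?_
      refine ⟨g⁻¹ * c * g, h1 (Subgroup.mem_centralizer_singleton_iff.2 ?_), by simp [mul_assoc]⟩
      have hc' := Subgroup.mem_centralizer_singleton_iff.1 hc
      calc (g⁻¹ * c * g) * y = g⁻¹ * (c * (g * y * g⁻¹)) * g := by group
        _ = g⁻¹ * ((g * y * g⁻¹) * c) * g := by rw [hc']
        _ = y * (g⁻¹ * c * g) := by group
    rw [← normalizer_coatom hG hM hM1]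
    exact Subgroup.mem_normalizer_iff_map_conj_eq.2 hMg
  obtain ⟨x, hxZ, hxo, hnu⟩ := hkey
  refine ⟨x, hxZ, hxo, ?_, hnu⟩
  have hxM : x ∈ M := by
    obtain ⟨m, -, rfl⟩ := hxZ
    exact m.2
  set K := Cfsg.alphaCore M ⊓ Subgroup.centralizer ({x} : Set G) with hK
  refine ⟨fun q hq Q => ?_⟩
  haveI := Fact.mk hq
  by_contra hnc
  have hQ : IsPGroup q ((Q : Subgroup K).map K.subtype) := Q.isPGroup'.map _
  have hQnc : ¬ IsCyclic ↥((Q : Subgroup K).map K.subtype) := fun h =>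
    hnc (isCyclic_of_surjective (Subgroup.equivMapOfInjective _ _ K.subtype_injective).symm.toMonoidHom
      (Subgroup.equivMapOfInjective _ _ K.subtype_injective).symm.surjective)
  have hq2 : q ≠ 2 := by
    refine ne_two hG ((dvd_card_of_ne_bot hQ fun h => hQnc ?_).trans (Subgroup.card_subgroup_dvd_card _))
    rw [h]; exact isCyclic_of_subsingleton
  obtain ⟨E, hEQ, hE, hEc⟩ := exists_elem_sq hq2 hQ hQnc
  have hXeq : Subgroup.centralizer ((Subgroup.zpowers x : Subgroup G) : Set G) =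
      Subgroup.centralizer ({x} : Set G) := by
    rw [Subgroup.zpowers_eq_closure, Subgroup.centralizer_closure]
  have hU := centralizer_unique hG (X := Subgroup.zpowers x) hM (Subgroup.zpowers_le.2 hxM) (fun r hr hd => by
      rw [Nat.card_zpowers, hxo, Nat.prime_dvd_prime_iff_eq hr hp.out] at hd
      exact hd ▸ fun ha => hp' (alpha_subset_sigma hG hM ha))
    (not_rankLE_of_elem (hEQ.trans (by rw [hXeq]; exact Subgroup.map_subtype_le _)) hE (pow_lt_card hEc))
  rw [hXeq] at hU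
  have hx1 : x ≠ 1 := fun h => hp.out.one_lt.ne (by rw [← hxo, h, orderOf_one])
  exact hnu ⟨le_of_unique hU hM inf_le_left (centralizer_singleton_ne_top hG hx1) inf_le_right,
    fun L hL hle => eq_of_unique hU hM inf_le_left hL (inf_le_right.trans hle)⟩

/-- B&G 10.4. -/
theorem eq_of_elementary_ge (hG : Cfsg.IsMinSimpleOddOrder G) {M : Subgroup G} (hM : IsCoatom M)
    (hp' : p ∉ Cfsg.sigma M) {A : Subgroup G} (hAM : A ≤ M) (hA : Cfsg.IsElementaryAbelian p A)
    (hAc : Nat.card A = p ^ 2) {B : Subgroup G} (hB : Cfsg.IsElementaryAbelian p B) (hAB : A ≤ B) : B = A := by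
  refine (Subgroup.eq_of_le_of_card_ge hAB ?_).symm
  by_contra hlt
  push Not at hlt
  rw [hAc] at hlt
  have hU := unique_of_centralizer_prank hG (allUnique hG) (not_rankLE_of_elem (k := 1) le_rfl hA (pow_lt_card hAc))
    (not_prank_of_elem ((elementary_le_centralizer hB).trans (Subgroup.centralizer_le hAB)) hB hlt)
  obtain ⟨S, hS⟩ := exists_max_ge (isPGroup_of_elementary hA) hAM
  refine hp' ⟨hp.out, (hAc ▸ dvd_pow_self p two_ne_zero : p ∣ Nat.card A).trans (Subgroup.card_dvd_of_le hAM), S,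
    le_of_unique hU hM hAM (normalizer_ne_top hG (fun h => ?_) (pgroup_ne_top hG (S.isPGroup'.map _)))
      (hS.trans Subgroup.le_normalizer)⟩
  rw [h, le_bot_iff] at hS
  rw [hS, Subgroup.card_bot] at hAc
  exact (Nat.one_lt_pow two_ne_zero hp.out.one_lt).ne hAc

theorem not_ideal (hG : Cfsg.IsMinSimpleOddOrder G) {M : Subgroup G} (hM : IsCoatom M) (hp' : p ∉ Cfsg.sigma M)
    (hr1 : ¬ Cfsg.PRankLE p 1 M) : ¬ Cfsg.IsIdealPrime p G := fun h => by
  obtain ⟨A, hAM, hA, hAc⟩ := exists_elem_of_not_prank hr1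
  obtain ⟨P, hP⟩ := IsPGroup.exists_le_sylow (isPGroup_of_elementary hA)
  obtain ⟨B, -, hB, hlt⟩ := h.2.2 P A hP hA hAc
  exact hlt.ne (eq_of_elementary_ge hG hM hp' hAM hA hAc hB hlt.le).symm

/-- B&G 10.5. -/
theorem normalizer_in_maximal (hG : Cfsg.IsMinSimpleOddOrder G) {M : Subgroup G} (hM : IsCoatom M)
    (hp' : p ∉ Cfsg.sigma M) {X : Subgroup G} (hX : Nat.card X = p)
    (hNX : Subgroup.normalizer (X : Set G) ≤ M) :
    (Cfsg.PRankLE p 2 M ∧ ¬ Cfsg.PRankLE p 1 M) ∧ ¬ Cfsg.IsIdealPrime p G ∧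
      ∃ A : Subgroup G, Cfsg.IsElementaryAbelian p A ∧ Nat.card A = p ^ 2 ∧ X ≤ A := by
  have hXM : X ≤ M := Subgroup.le_normalizer.trans hNX
  have hpM : p ∣ Nat.card M := hX ▸ Subgroup.card_dvd_of_le hXM
  have hr2 : Cfsg.PRankLE p 2 M := by
    by_contra h; exact hp' (mem_sigma_of_alpha hG hM ⟨hp.out, h⟩)
  have hXp : IsPGroup p X := IsPGroup.of_card (n := 1) (by rw [hX, pow_one])
  obtain ⟨S, hS⟩ := exists_max_ge hXp hXM
  set T := (S : Subgroup M).map M.subtype
  have hTp : IsPGroup p T := S.isPGroup'.map _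
  have hTM : T ≤ M := Subgroup.map_subtype_le _
  have hTnc : ¬ IsCyclic T := by
    intro hc
    refine hp' ⟨hp.out, hpM, S, le_trans (fun g hg => ?_) hNX⟩
    rw [Subgroup.mem_normalizer_iff_map_conj_eq]
    refine Chev.Ree.GL0.eq_of_card_eq (A := T) ?_ hS (Subgroup.card_map_of_injective (MulAut.conj g).injective)
    exact (Subgroup.map_mono hS).trans (map_conj_eq_of_normalizer hg).le
  obtain ⟨E, hET, hE, hEc⟩ := exists_elem_sq (ne_two hG (hX ▸ Subgroup.card_subgroup_dvd_card X)) hTp hTnc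
  have hr1 : ¬ Cfsg.PRankLE p 1 M := not_prank_of_elem (hET.trans hTM) hE (pow_lt_card hEc)
  refine ⟨⟨hr2, hr1⟩, not_ideal hG hM hp' hr1, ?_⟩
  by_cases hXE : X ≤ E
  · exact ⟨E, hE, hEc, hXE⟩
  -- an element of order `p` outside `X` that centralizes `X`
  have hXel : Cfsg.IsElementaryAbelian p X := by
    haveI : IsCyclic X := isCyclic_of_prime_card hX
    exact ⟨inferInstance, fun a ha => by
      have := pow_card_eq_one' (x := (⟨a, ha⟩ : X))
      rw [hX] at this
      exact congrArg Subtype.val this⟩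
  obtain ⟨z, hzT, hzX, hzp, hzC⟩ : ∃ z ∈ T, z ∉ X ∧ z ^ p = 1 ∧ z ∈ Subgroup.centralizer (X : Set G) := by
    haveI : Nontrivial T := by
      rw [← Finite.one_lt_card_iff_nontrivial]
      exact hp.out.one_lt.trans_le (hX ▸ Subgroup.card_le_of_le hS)
    haveI := hTp.center_nontrivial
    obtain ⟨n, hn, hc⟩ := (hTp.to_subgroup (Subgroup.center T)).nontrivial_iff_card.1 inferInstance
    obtain ⟨z, hz⟩ := exists_prime_orderOf_dvd_card' p (hc ▸ dvd_pow_self p hn.ne' : p ∣ Nat.card (Subgroup.center T))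
    have hcz : ∀ t ∈ T, t * ((z : T) : G) = ((z : T) : G) * t := fun t ht =>
      congrArg Subtype.val (Subgroup.mem_center_iff.1 z.2 ⟨t, ht⟩)
    have hzp : ((z : T) : G) ^ p = 1 := by
      rw [← hz]
      exact congrArg (fun a : Subgroup.center T => ((a : T) : G)) (pow_orderOf_eq_one z)
    by_cases hzX : ((z : T) : G) ∈ X
    swap
    · exact ⟨_, (z : T).2, hzX, hzp, Subgroup.mem_centralizer_iff.2 fun t ht => hcz t (hS ht)⟩
    have hXz : Subgroup.zpowers ((z : T) : G) = X := by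
      refine Subgroup.eq_of_le_of_card_ge (Subgroup.zpowers_le.2 hzX) ?_
      rw [Nat.card_zpowers, Subgroup.orderOf_coe, Subgroup.orderOf_coe, hz, hX]
    obtain ⟨e, heE, heX⟩ : ∃ e ∈ E, e ∉ X := by
      by_contra hno
      push Not at hno
      have := Subgroup.card_le_of_le (show E ≤ X from hno)
      rw [hEc, hX] at this
      exact absurd this (not_le.2 (lt_self_pow₀ hp.out.one_lt (by norm_num)))
    refine ⟨e, hET heE, heX, hE.2 e heE, ?_⟩
    rw [← hXz, Subgroup.zpowers_eq_closure, Subgroup.centralizer_closure, Subgroup.mem_centralizer_singleton_iff]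
    exact hcz e (hET heE)
  have hsup := NormalEl.elementary_sup hXel (elementary_zpowers hzp) fun a ha b hb =>
    Subgroup.mem_centralizer_iff.1 ((Subgroup.zpowers_le.2 hzC) hb) a ha
  refine ⟨_, hsup, ?_, le_sup_left⟩
  have hle : X ⊔ Subgroup.zpowers z ≤ M := sup_le hXM (Subgroup.zpowers_le.2 (hTM hzT))
  obtain ⟨n, hn⟩ := (isPGroup_of_elementary hsup).exists_card_eq
  have hlt : X < X ⊔ Subgroup.zpowers z := lt_of_le_of_ne le_sup_left fun h =>
    hzX (h ▸ Subgroup.mem_sup_right (Subgroup.mem_zpowers z))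
  have h1 := card_lt_of_lt hlt
  have h2 : 1 < n := by
    rw [hX, hn] at h1
    exact (Nat.pow_lt_pow_iff_right hp.out.one_lt).1 (by rwa [pow_one])
  have h3 : n ≤ 2 := by
    by_contra hgt
    exact not_prank_of_elem hle hsup (hn ▸ Nat.pow_lt_pow_right hp.out.one_lt (not_le.1 hgt)) hr2
  rw [hn, le_antisymm h3 h2]

end CfsgLib.SigmaGroups
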