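import Cfsg.Agent.PrimeAction.Basic
import Cfsg.Agent.CoprimeAction.Abelian

/-!
An operator of prime order all of whose fixed points are fixed by `S` has `[S, X]` acting trivially.
-/

set_option autoImplicit false
set_option linter.style.haveILetI false

namespace CfsgLib.SigmaGroups

open scoped commutatorElement

universe u

variable {G : Type u} [Group G] [Finite G] {l q r : ℕ}

theorem commutator_le_centralizer_abelian (hl : l.Prime) (hq : q.Prime) (hr : r.Prime) (hlq : l ≠ q) (hlr : l ≠ r)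
    (hqr : q ≠ r) (hq2 : q ≠ 2) {S X V : Subgroup G} [IsMulCommutative V] (hS : IsPGroup q S) (hX : Nat.card X = r)
    (hV : IsPGroup l V) (hXS : X ≤ Subgroup.normalizer (S : Set G)) (hSV : S ≤ Subgroup.normalizer (V : Set G))
    (hXV : X ≤ Subgroup.normalizer (V : Set G))
    (hfix : V ⊓ Subgroup.centralizer (X : Set G) ≤ Subgroup.centralizer (S : Set G)) :
    ⁅S, X⁆ ≤ Subgroup.centralizer (V : Set G) := by
  haveI := Fact.mk hl
  haveI := Fact.mk hq
  have hcop : (Nat.card S).Coprime (Nat.card V) := IsPGroup.coprime_card_of_ne q l hlq.symm S V hS hV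
  have hWV : ⁅V, S⁆ ≤ V := CoprimeAction.commutator_le_of_normalizer hSV
  have hXW : X ≤ Subgroup.normalizer ((⁅V, S⁆ : Subgroup G) : Set G) := by
    intro x hx
    rw [Subgroup.mem_normalizer_iff_map_conj_eq, Subgroup.map_commutator,
      Subgroup.mem_normalizer_iff_map_conj_eq.1 (hXV hx), Subgroup.mem_normalizer_iff_map_conj_eq.1 (hXS hx)]
  have hfW : ⁅V, S⁆ ⊓ Subgroup.centralizer (X : Set G) = ⊥ := by
    rw [eq_bot_iff, ← CoprimeAction.centralizer_inf_commutator_eq_bot (A := S) hSV hcop]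
    exact fun x hx => ⟨⟨hWV hx.1, hfix ⟨hWV hx.1, hx.2⟩⟩, hx.1⟩
  have h1 := PrimeAction.commutator_le_centralizer hl hq hr hlq hlr hqr hq2 hS hX (hV.to_le hWV) hXS
    (CoprimeAction.le_normalizer_commutator hSV) hXW hfW
  have hsup := CoprimeAction.commutator_sup_centralizer hSV hcop (Or.inl (haveI := hS.isNilpotent; inferInstance))
  rw [← hsup]
  refine Subgroup.le_centralizer_iff.1 (sup_le (Subgroup.le_centralizer_iff.1 h1) ?_)
  exact inf_le_right.trans (Subgroup.centralizer_le (CoprimeAction.commutator_le_of_normalizer hXS))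

theorem commutator_le_centralizer_of_fixed (hl : l.Prime) (hq : q.Prime) (hr : r.Prime) (hlq : l ≠ q) (hlr : l ≠ r)
    (hqr : q ≠ r) (hq2 : q ≠ 2) {S X M : Subgroup G} (hS : IsPGroup q S) (hX : Nat.card X = r) (hM : IsPGroup l M)
    (hXS : X ≤ Subgroup.normalizer (S : Set G)) (hSM : S ≤ Subgroup.normalizer (M : Set G))
    (hXM : X ≤ Subgroup.normalizer (M : Set G))
    (hfix : M ⊓ Subgroup.centralizer (X : Set G) ≤ Subgroup.centralizer (S : Set G)) :
    ⁅S, X⁆ ≤ Subgroup.centralizer (M : Set G) := by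
  haveI := Fact.mk hl
  haveI := Fact.mk hq
  haveI := Fact.mk hr
  set N := Subgroup.normalizer (M : Set G) with hN
  set Ψ := (frattini M).map M.subtype with hΨ
  have hNΨ : N ≤ Subgroup.normalizer (Ψ : Set G) := by
    rw [Subgroup.le_normalizer_iff]
    rintro g hg _ ⟨w, hw, rfl⟩
    exact ⟨M.normalizerMonoidHom ⟨g, hg⟩ w,
      (Subgroup.characteristic_iff_map_le.1 (inferInstance : (frattini M).Characteristic) _) ⟨w, hw, rfl⟩, rfl⟩
  haveI : (Ψ.subgroupOf N).Normal :=
    (Subgroup.normal_subgroupOf_iff_le_normalizer ((Subgroup.map_subtype_le _).trans Subgroup.le_normalizer)).2 hNΨ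
  let π := QuotientGroup.mk' (Ψ.subgroupOf N)
  have hker : ∀ {g : N}, π g = 1 ↔ (g : G) ∈ Ψ := fun {g} => by
    rw [← MonoidHom.mem_ker, QuotientGroup.ker_mk', Subgroup.mem_subgroupOf]
  set M' := (M.subgroupOf N).map π with hM'
  set S' := (S.subgroupOf N).map π with hS'
  set X' := (X.subgroupOf N).map π with hX'
  have hMN : M ≤ N := Subgroup.le_normalizer
  have hnorm : ∀ {A B : Subgroup G}, A ≤ N → A ≤ Subgroup.normalizer (B : Set G) →
      (A.subgroupOf N).map π ≤ Subgroup.normalizer ((B.subgroupOf N).map π : Set (N ⧸ Ψ.subgroupOf N)) := by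
    intro A B hA hB
    refine (Subgroup.map_mono ?_).trans (Subgroup.le_normalizer_map π)
    rw [Subgroup.le_normalizer_iff]
    exact fun a ha b hb => (Subgroup.le_normalizer_iff.1 hB) _ ha _ hb
  haveI : IsMulCommutative M' := by
    refine ⟨⟨?_⟩⟩
    rintro ⟨_, a, ha, rfl⟩ ⟨_, b, hb, rfl⟩
    refine Subtype.ext ?_
    show π a * π b = π b * π a
    rw [← commutatorElement_eq_one_iff_mul_comm, ← map_commutatorElement, hker]
    exact ⟨⁅(⟨a, ha⟩ : M), ⟨b, hb⟩⁆, CoprimeAction.commutator_le_frattini' hM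
      (Subgroup.commutator_mem_commutator (Subgroup.mem_top _) (Subgroup.mem_top _)), rfl⟩
  have hXc : X ≤ Subgroup.normalizer (Ψ : Set G) := hXM.trans hNΨ
  have hfix' : M' ⊓ Subgroup.centralizer (X' : Set (N ⧸ Ψ.subgroupOf N)) ≤
      Subgroup.centralizer (S' : Set (N ⧸ Ψ.subgroupOf N)) := by
    rintro _ ⟨⟨m, hm, rfl⟩, hmc⟩
    have hΨp : IsPGroup l Ψ := hM.to_le (Subgroup.map_subtype_le _)
    obtain ⟨n, hn, hnm⟩ := CoprimeAction.exists_mem_centralizer hXc
      (by
        obtain ⟨a, ha⟩ := hΨp.exists_card_eq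
        rw [hX, ha]
        exact ((Nat.coprime_primes hr hl).2 hlr.symm).pow_right a)
      (Or.inr (haveI := hΨp.isNilpotent; inferInstance)) (k := (m : G)) fun x hx => by
        have h := Subgroup.mem_centralizer_iff.1 hmc (π ⟨x, hXM hx⟩) ⟨_, Subgroup.mem_subgroupOf.2 hx, rfl⟩
        rw [← commutatorElement_eq_one_iff_mul_comm, ← map_commutatorElement, hker] at h
        exact h
    have hnN : n ∈ N := hMN (Subgroup.map_subtype_le _ hn)
    have he : π ⟨n * (m : G), N.mul_mem hnN m.2⟩ = π m := by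
      rw [show (⟨n * (m : G), N.mul_mem hnN m.2⟩ : N) = ⟨n, hnN⟩ * m from rfl, map_mul, (hker (g := ⟨n, hnN⟩)).2 hn, one_mul]
    rw [Subgroup.mem_centralizer_iff, ← he]
    rintro _ ⟨s, hs, rfl⟩
    rw [← map_mul, ← map_mul]
    exact congrArg π (Subtype.ext (Subgroup.mem_centralizer_iff.1
      (hfix ⟨M.mul_mem (Subgroup.map_subtype_le _ hn) hm, hnm⟩) s hs))
  have hXcard : Nat.card X' = r ∨ X' = ⊥ := by
    have hd : Nat.card X' ∣ r := by
      rw [← hX, ← Nat.card_congr (Subgroup.subgroupOfEquivOfLe hXM).toEquiv]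
      exact Subgroup.card_map_dvd _ _
    rcases (Nat.dvd_prime hr).1 hd with h | h
    · exact Or.inr (Subgroup.card_eq_one.1 h)
    · exact Or.inl h
  have key : ⁅S', X'⁆ ≤ Subgroup.centralizer (M' : Set (N ⧸ Ψ.subgroupOf N)) := by
    rcases hXcard with h | h
    · exact commutator_le_centralizer_abelian hl hq hr hlq hlr hqr hq2
        ((hS.of_equiv (Subgroup.subgroupOfEquivOfLe hSM).symm).map π) h
        ((hM.of_equiv (Subgroup.subgroupOfEquivOfLe hMN).symm).map π)
        (hnorm hXM hXS) (hnorm hSM hSM) (hnorm hXM hXM) hfix'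
    · rw [h, Subgroup.commutator_bot_right]; exact bot_le
  have hST : ⁅S, X⁆ ≤ S := CoprimeAction.commutator_le_of_normalizer hXS
  refine CoprimeAction.le_centralizer_of_frattini ?_ fun t ht k hk => ?_
  · obtain ⟨a, ha⟩ := (hS.to_le hST).exists_card_eq
    obtain ⟨b, hb⟩ := (hM.to_subgroup (frattini M)).exists_card_eq
    rw [ha, hb]
    exact (((Nat.coprime_primes hq hl).2 hlq.symm).pow_left a).pow_right b
  · have htN : t ∈ N := hSM (hST ht)
    have h2 : π ⟨t, htN⟩ ∈ ⁅S', X'⁆ := by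
      rw [hS', hX', ← Subgroup.map_commutator]
      refine Subgroup.mem_map_of_mem π ?_
      have h := Subgroup.map_commutator (S.subgroupOf N) (X.subgroupOf N) N.subtype
      rw [Subgroup.map_subgroupOf_eq_of_le hSM, Subgroup.map_subgroupOf_eq_of_le hXM] at h
      obtain ⟨u, hu, hut⟩ := h.symm ▸ ht
      exact (show u = ⟨t, htN⟩ from Subtype.ext hut) ▸ hu
    have h3 := Subgroup.mem_centralizer_iff.1 (key h2) (π ⟨k, hMN hk⟩) ⟨_, Subgroup.mem_subgroupOf.2 hk, rfl⟩
    rw [eq_comm, ← commutatorElement_eq_one_iff_mul_comm, ← map_commutatorElement, hker] at h3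
    exact h3

end CfsgLib.SigmaGroups
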